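import Cfsg.Agent.H4.BS4

/-! Abstract group theory for the end-game. -/

set_option autoImplicit false

namespace Cfsg.Agent.H5.C5

open Subgroup

variable {G : Type*} [Group G] [Finite G]

theorem uniq_inv (z : G) (hz : orderOf z = 2) (hu : ∀ c, Commute c z → c ^ 2 = 1 → c = 1 ∨ c = z)
    (a b : G) (ha : orderOf a = 2) (hb : orderOf b = 2) (hab : Commute a b) : a = b := by
  haveI : Fact (Nat.Prime 2) := ⟨Nat.prime_two⟩
  have pg : ∀ x : G, orderOf x = 2 → IsPGroup 2 (zpowers x) := fun x hx =>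
    IsPGroup.of_card (n := 1) (by rw [Nat.card_zpowers, hx, pow_one])
  obtain ⟨P, hP⟩ := (pg z hz).exists_le_sylow
  have zP : z ∈ P := hP (mem_zpowers z)
  have z1 : z ≠ 1 := fun e => by rw [e, orderOf_one] at hz; omega
  haveI : Nontrivial P := ⟨⟨z, zP⟩, 1, fun e => z1 (congrArg Subtype.val e)⟩
  haveI := P.isPGroup'.center_nontrivial
  obtain ⟨w, hw⟩ := exists_prime_orderOf_dvd_card' (G := center P) 2 (by
    rcases (P.isPGroup'.to_subgroup (center P)).card_eq_or_dvd with h | h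
    · exact absurd h Finite.one_lt_card.ne'
    · exact h)
  have wc : ∀ x ∈ P, Commute x (w.1.1) := fun x hx =>
    congrArg Subtype.val (mem_center_iff.1 w.2 ⟨x, hx⟩)
  have hw' : orderOf w.1.1 = 2 := by rw [orderOf_coe, orderOf_coe, hw]
  have inv : ∀ x, orderOf x = 2 → Commute x z → x = z := fun x hx hc =>
    (hu x hc (hx ▸ pow_orderOf_eq_one x)).resolve_left fun e => by rw [e, orderOf_one] at hx; omega
  have wz : w.1.1 = z := inv _ hw' (wc z zP).symm
  obtain ⟨Q, hQ⟩ := (pg a ha).exists_le_sylow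
  obtain ⟨g, rfl⟩ := MulAction.exists_smul_eq G P Q
  have k : g⁻¹ * a * g ∈ P := by
    have := hQ (mem_zpowers a)
    rw [Sylow.coe_subgroup_smul, mem_pointwise_smul_iff_inv_smul_mem] at this
    have h' : g⁻¹ * a * g ∈ (P : Subgroup G) := by simpa using this
    exact h'
  have oc : ∀ x : G, orderOf (g⁻¹ * x * g) = orderOf x := fun x => by
    have := (MulAut.conj g⁻¹).orderOf_eq x
    simpa using this
  have ea : g⁻¹ * a * g = z := inv _ (by rw [oc, ha]) (wz ▸ wc _ k)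
  have eb : g⁻¹ * b * g = z := inv _ (by rw [oc, hb]) (by
    rw [← ea]
    show _ = _
    calc g⁻¹ * b * g * (g⁻¹ * a * g) = g⁻¹ * (b * a) * g := by group
      _ = _ := by rw [← hab.eq]; group)
  simpa using ea.trans eb.symm

theorem ab_mod (O : Subgroup G) [hO : O.Normal] (ho : Odd (Nat.card O)) (z : G) (hz : z * z = 1)
    (Z : Subgroup G) (hZ : Z ≤ center G) (hc : ∀ c ∈ O, Commute c z → c ∈ Z) :
    ∀ a ∈ O, ∀ b ∈ O, ∃ c ∈ Z, a * b = c * (b * a) := by
  have zi : z⁻¹ = z := inv_eq_of_mul_eq_one_right hz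
  have key : ∀ o ∈ O, ∃ c ∈ Z, z * o * z⁻¹ = c * o⁻¹ := by
    intro o h
    have ht : o⁻¹ * (z * o * z⁻¹) ∈ O := mul_mem (inv_mem h) (hO.conj_mem o h z)
    set t := o⁻¹ * (z * o * z⁻¹) with hdef
    obtain ⟨k, hk⟩ := ho
    have t1 : t ^ (2 * k + 1) = 1 := by
      rw [← hk]; exact congrArg Subtype.val (pow_card_eq_one' (x := (⟨t, ht⟩ : O)))
    have zt : z * t * z⁻¹ = t⁻¹ := by
      rw [hdef]
      calc z * (o⁻¹ * (z * o * z⁻¹)) * z⁻¹ = z * o⁻¹ * z * o * (z * z)⁻¹ := by group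
        _ = _ := by rw [hz]; nth_rewrite 2 [← zi]; group
    have zr : z * t ^ (k + 1) * z⁻¹ = (t ^ (k + 1))⁻¹ := by rw [← conj_pow, zt, inv_pow]
    have rr : t ^ (k + 1) * t ^ (k + 1) = t := by
      rw [← pow_add, show k + 1 + (k + 1) = 2 * k + 1 + 1 by ring, pow_succ, t1, one_mul]
    have rO : t ^ (k + 1) ∈ O := pow_mem ht _
    generalize t ^ (k + 1) = r at *
    have e : z * o * z⁻¹ = o * r * r := by rw [mul_assoc o, rr, hdef]; group
    have cZ : o * r ∈ Z := hc _ (mul_mem h rO) (by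
      show o * r * z = z * (o * r)
      calc o * r * z = (z * o * z⁻¹) * (z * r * z⁻¹) * z := by rw [e, zr]; group
        _ = _ := by group)
    refine ⟨o * r * (o * r), mul_mem cZ cZ, ?_⟩
    have := mem_center_iff.1 (hZ cZ) o⁻¹
    rw [e, mul_assoc (o * r) (o * r), ← this]; group
  intro a ha b hb
  obtain ⟨c1, h1, e1⟩ := key _ (inv_mem ha)
  obtain ⟨c2, h2, e2⟩ := key _ (inv_mem hb)
  obtain ⟨c3, h3, e3⟩ := key _ (mul_mem (inv_mem ha) (inv_mem hb))
  refine ⟨c1⁻¹ * c2⁻¹ * c3, mul_mem (mul_mem (inv_mem h1) (inv_mem h2)) h3, ?_⟩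
  have e4 : c1 * a * (c2 * b) = c3 * (b * a) := by
    rw [inv_inv] at e1 e2
    rw [mul_inv_rev, inv_inv, inv_inv] at e3
    rw [← e1, ← e2, ← e3]; group
  rw [mul_assoc, ← e4, mul_assoc c1, ← mul_assoc a, mem_center_iff.1 (hZ h2) a,
    mem_center_iff.1 (hZ (inv_mem h2)) c1⁻¹]
  group

theorem mem_of_inv (O : Subgroup G) [hO : O.Normal] (z : G)
    (hd : ∀ g, ∃ o ∈ O, ∃ c, Commute c z ∧ g = o * c) {x : G} (hx : z * x⁻¹ * z⁻¹ = x)
    (h5 : x ^ 5 = 1) : x ∈ O := by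
  obtain ⟨o, ho, c, hc, e⟩ := hd x
  have k : x * x ∈ O := by
    have : x * x = o * (z * o⁻¹ * z⁻¹) := by
      nth_rewrite 2 [← hx]
      rw [e]
      calc o * c * (z * (o * c)⁻¹ * z⁻¹) = o * (c * z) * c⁻¹ * o⁻¹ * z⁻¹ := by group
        _ = _ := by rw [hc.eq]; group
    rw [this]; exact mul_mem ho (hO.conj_mem _ (inv_mem ho) z)
  have : x = (x * x) ^ 3 := by rw [← pow_two, ← pow_mul, show 2 * 3 = 5 + 1 from rfl, pow_succ, h5, one_mul]
  rw [this]; exact pow_mem k 3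

end Cfsg.Agent.H5.C5
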