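import Cfsg.Agent.H5.C5.Two

/-! Restriction of matrices to blocks, unipotent elements, generation of `SL`. -/

set_option autoImplicit false
set_option linter.unusedSimpArgs false
set_option linter.unusedSectionVars false
set_option linter.unusedVariables false

namespace Cfsg.Agent.H5.C5

open Matrix Cfsg.Agent.H5.T3

variable {F : Type*} [Field F] {n k : Type} [Fintype n] [DecidableEq n] [Fintype k] [DecidableEq k]

/-- invertible matrices commuting with `e` -/
def Cm (e : Matrix n n F) : Subgroup (GL n F) where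
  carrier := {g | g.1 * e = e * g.1}
  one_mem' := by simp
  mul_mem' {a b} ha hb := by
    simp only [Set.mem_setOf_eq, Units.val_mul] at *
    rw [mul_assoc, hb, ← mul_assoc, ha, mul_assoc]
  inv_mem' {a} ha := by
    simp only [Set.mem_setOf_eq] at *
    rw [Units.inv_mul_eq_iff_eq_mul, ← mul_assoc, ha, mul_assoc, Units.mul_inv, mul_one]

theorem mem_Cm {e : Matrix n n F} {g : GL n F} : g ∈ Cm e ↔ g.1 * e = e * g.1 := Iff.rfl

variable {A : Matrix n k F} {B : Matrix k n F}

theorem res_mul (h : B * A = 1) {X Y : Matrix n n F} (hY : Y * (A * B) = A * B * Y) :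
    B * (X * Y) * A = B * X * A * (B * Y * A) := by
  have : Y * A = A * B * Y * A := by
    rw [← hY, Matrix.mul_assoc, Matrix.mul_assoc A, h, Matrix.mul_one]
  calc B * (X * Y) * A = B * X * (Y * A) := by simp only [Matrix.mul_assoc]
    _ = _ := by rw [this]; simp only [Matrix.mul_assoc]

/-- restriction to the block -/
def rs (h : B * A = 1) : Cm (A * B) →* GL k F where
  toFun g := ⟨B * g.1.1 * A, B * (g.1⁻¹).1 * A,
    by rw [← res_mul h (inv_mem g.2), Units.mul_inv, Matrix.mul_one, h],
    by rw [← res_mul h g.2, Units.inv_mul, Matrix.mul_one, h]⟩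
  map_one' := Units.ext (by simp [h])
  map_mul' a b := Units.ext (res_mul h b.2)

@[simp] theorem rs_val (h : B * A = 1) (g : Cm (A * B)) : (rs h g).1 = B * g.1.1 * A := rfl

/-- restriction homomorphism on a subgroup -/
def rs' (h : B * A = 1) {K : Subgroup (GL n F)} (hK : K ≤ Cm (A * B)) : K →* GL k F :=
  (rs h).comp (Subgroup.inclusion hK)

@[simp] theorem rs'_val (h : B * A = 1) {K : Subgroup (GL n F)} (hK : K ≤ Cm (A * B)) (g : K) :
    (rs' h hK g).1 = B * g.1.1 * A := rfl

theorem sandwich (h : B * A = 1) {X : Matrix n n F} (hX : X * (A * B) = A * B * X) :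
    A * (B * X * A) * B = X * (A * B) := by
  calc A * (B * X * A) * B = A * B * X * (A * B) := by simp only [Matrix.mul_assoc]
    _ = X * (A * (B * A) * B) := by rw [← hX]; simp only [Matrix.mul_assoc]
    _ = _ := by rw [h, Matrix.mul_one]

theorem exists_ppart {G H : Type*} [Group G] [Finite G] [Group H] {p : ℕ} (hp : p.Prime)
    (r : G →* H) (g : G) (ht : r g ^ p = 1) :
    ∃ h ∈ Subgroup.zpowers g, (∃ a, h ^ p ^ a = 1) ∧ r h = r g := by
  obtain ⟨a, m, hm, e⟩ := Nat.exists_eq_pow_mul_and_not_dvd (orderOf_pos g).ne' p hp.ne_one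
  refine ⟨g ^ m ^ (p - 1), Subgroup.npow_mem_zpowers _ _, ⟨a, ?_⟩, ?_⟩
  · rw [← pow_mul, ← orderOf_dvd_iff_pow_eq_one, e, mul_comm]
    exact Nat.mul_dvd_mul (dvd_pow_self m (by have := hp.two_le; omega)) dvd_rfl
  · have h1 : m ^ (p - 1) ≡ 1 [MOD p] := by
      rw [← Nat.totient_prime hp]
      exact Nat.ModEq.pow_totient ((Nat.Prime.coprime_iff_not_dvd hp).2 hm).symm
    rw [map_pow, ← pow_one (r g), ← pow_mul, one_mul]
    exact pow_eq_pow_iff_modEq.2 (h1.of_dvd (orderOf_dvd_of_pow_eq_one ht))

theorem unip {p : ℕ} (h : PF F p) {X : Matrix n n F} {a : ℕ} (hX : X ^ p ^ a = 1) :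
    (X - 1) ^ Fintype.card n = 0 := by
  rcases isEmpty_or_nonempty n with hn | hn
  · exact Subsingleton.elim _ _
  haveI := h.char
  haveI : Fact p.Prime := ⟨h.prime⟩
  have e := sub_pow_char_pow_of_commute (R := Matrix n n F) p a (Commute.one_right X)
  rw [hX, one_pow, sub_self] at e
  have hn : IsNilpotent (X - 1) := ⟨_, e⟩
  have h1 := Matrix.aeval_self_charpoly (X - 1)
  have h2 : (X - 1).charpoly = Polynomial.X ^ Fintype.card n :=
    sub_eq_zero.1 (Matrix.isNilpotent_charpoly_sub_pow_of_isNilpotent hn).eq_zero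
  rw [h2] at h1
  simpa using h1

theorem unip2_pow {R : Type*} [Ring R] {N : R} (h : N * N = 0) (m : ℕ) :
    (1 + N) ^ m = 1 + m • N := by
  induction m with
  | zero => simp
  | succ m ih =>
    rw [pow_succ, ih, add_mul, mul_add, mul_add, smul_mul_assoc m N N, h, succ_nsmul]
    simp only [one_mul, mul_one, smul_zero, add_zero]
    abel

theorem slin_of_elem [Nontrivial n] {M : Subgroup (GL n F)}
    (h : ∀ i j : n, i ≠ j → ∀ c : F, InM M (transvection i j c)) : SLin M := by
  intro Y hY
  refine SpecialLinearGroup.diagonal_transvection_induction' (fun A => InM M A.1) ⟨Y, hY⟩ ?_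
    (fun i j hij a => h i j hij a) (fun A B hA hB => hA.mul hB)
  intro i j hij c hc
  refine ((((((h i j hij c).mul (h j i hij.symm (-c⁻¹))).mul (h i j hij c)).mul
    (h i j hij (-1))).mul (h j i hij.symm 1)).mul (h i j hij (-1))).congr ?_
  rw [SpecialLinearGroup.diag2n_coe]
  have e : diagonal (fun k => if k = i then c else if k = j then c⁻¹ else 1) =
      1 + single i i (c - 1) + single j j (c⁻¹ - 1) := by
    ext a b
    by_cases h1 : a = b
    · subst h1
      by_cases h2 : a = i
      · subst h2; simp [hij.symm]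
      · by_cases h3 : a = j
        · subst h3; simp [h2, hij]
        · simp [h2, h3, Ne.symm h2, Ne.symm h3]
    · have : ∀ (t : n) (x : F), single t t x a b = 0 := fun t x => by
        rw [single_apply]; split_ifs with h2
        · exact absurd (h2.1.symm.trans h2.2) h1
        · rfl
      simp [h1, this]
  rw [e]
  simp only [transvection, mul_add, add_mul, Matrix.one_mul, Matrix.mul_one, single_mul_single_same,
    single_mul_single_of_ne _ _ _ _ hij, single_mul_single_of_ne _ _ _ _ hij.symm, add_zero, zero_add]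
  ext a b
  simp only [Matrix.add_apply, single_apply]
  split_ifs <;> (try field_simp) <;> (try ring) <;> grind

end Cfsg.Agent.H5.C5
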