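import Cfsg.Agent.H5.C5.T
import Cfsg.Agent.H4.Th4

/-! The centraliser of `σ`: it acts faithfully on the `-1`-eigenspace. -/

set_option autoImplicit false
set_option linter.unusedSimpArgs false
set_option linter.unusedSectionVars false
set_option linter.unusedVariables false

namespace Cfsg.Agent.H5.C5

open Matrix Cfsg.Agent.H5.T3 Cfsg.Agent.H8

variable {F : Type*} [Field F]

def Ap (F : Type*) [Field F] : Matrix (Fin 5) (Fin 3) F := !![1,0,0; 0,1,0; 0,0,1; 0,0,1; 0,1,0]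
def Bp (F : Type*) [Field F] : Matrix (Fin 3) (Fin 5) F :=
  !![1,0,0,0,0; 0,2⁻¹,0,0,2⁻¹; 0,0,2⁻¹,2⁻¹,0]
def Am (F : Type*) [Field F] : Matrix (Fin 5) (Fin 2) F := !![0,0; 1,0; 0,1; 0,-1; -1,0]
def Bm (F : Type*) [Field F] : Matrix (Fin 2) (Fin 5) F := !![0,2⁻¹,0,0,-2⁻¹; 0,0,2⁻¹,-2⁻¹,0]

/-- entrywise computation, one goal for each entry -/
macro "mcc" : tactic => `(tactic| (ext i j; fin_cases i <;> fin_cases j <;>
  simp [ρ, τ, τ', uu, σ, δ, δ', Φ, A0, B0, A1, B1, A2, B2, Ap, Bp, Am, Bm,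
    Matrix.mul_apply, Matrix.vecMul, dotProduct, Fin.sum_univ_succ]))

theorem half (h2 : (2 : F) ≠ 0) : (2⁻¹ + 2⁻¹ : F) = 1 := by field_simp; norm_num

theorem BAp (h2 : (2 : F) ≠ 0) : (Bp F * Ap F : M3 F) = 1 := by mcc <;> exact half h2
theorem BAm (h2 : (2 : F) ≠ 0) : (Bm F * Am F : M2 F) = 1 := by mcc <;> exact half h2
theorem ABp (h2 : (2 : F) ≠ 0) : (Ap F * Bp F : M5 F) = (2⁻¹ : F) • (1 + σ) := by
  mcc; field_simp; norm_num
theorem ABm : (Am F * Bm F : M5 F) = (2⁻¹ : F) • (1 - σ) := by mcc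
theorem sumpm (h2 : (2 : F) ≠ 0) : (Ap F * Bp F + Am F * Bm F : M5 F) = 1 := by
  rw [ABp h2, ABm, ← smul_add, add_add_sub_cancel, ← two_smul F, smul_smul, inv_mul_cancel₀ h2, one_smul]

/-- the centraliser of `σ` -/
def CC (M : Subgroup (GL (Fin 5) F)) : Subgroup (GL (Fin 5) F) :=
  M ⊓ (Cm (Ap F * Bp F) ⊓ Cm (Am F * Bm F))

variable {M : Subgroup (GL (Fin 5) F)}

theorem CCp : CC M ≤ Cm (Ap F * Bp F) := fun _ h => h.2.1
theorem CCm : CC M ≤ Cm (Am F * Bm F) := fun _ h => h.2.2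

def rp (h2 : (2 : F) ≠ 0) (M : Subgroup (GL (Fin 5) F)) := rs' (BAp h2) (CCp (M := M))
def rm (h2 : (2 : F) ≠ 0) (M : Subgroup (GL (Fin 5) F)) := rs' (BAm h2) (CCm (M := M))

theorem CC_dec (h2 : (2 : F) ≠ 0) (g : CC M) :
    g.1.1 = Ap F * (rp h2 M g).1 * Bp F + Am F * (rm h2 M g).1 * Bm F := by
  rw [rp, rm, rs'_val, rs'_val, sandwich (BAp h2) (CCp g.2), sandwich (BAm h2) (CCm g.2),
    ← mul_add, sumpm h2, Matrix.mul_one]

theorem CC_ext (h2 : (2 : F) ≠ 0) {g g' : CC M} (e1 : rp h2 M g = rp h2 M g')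
    (e2 : rm h2 M g = rm h2 M g') : g = g' :=
  Subtype.ext (Units.ext (by rw [CC_dec h2, CC_dec h2 g', e1, e2]))

theorem mem_CC (h2 : (2 : F) ≠ 0) {g : GL (Fin 5) F} (hg : g ∈ M) (h : g.1 * σ = σ * g.1) :
    g ∈ CC M := by
  refine ⟨hg, mem_Cm.2 ?_, mem_Cm.2 ?_⟩
  · rw [ABp h2, mul_smul_comm, smul_mul_assoc, mul_add, add_mul, h]; simp
  · rw [ABm, mul_smul_comm, smul_mul_assoc, mul_sub, sub_mul, h]; simp

theorem ex_CC (h2 : (2 : F) ≠ 0) {X : M5 F} (hX : InM M X) (h : X * σ = σ * X) :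
    ∃ g : CC M, g.1.1 = X := by
  obtain ⟨g, hg, rfl⟩ := hX
  exact ⟨⟨g, mem_CC h2 hg h⟩, rfl⟩

/-- the symmetric square in the basis `xy, x², -y²` -/
def S2 (g : M2 F) : M3 F :=
  !![g 0 0 * g 1 1 + g 0 1 * g 1 0, 2 * g 0 0 * g 1 0, -(2 * g 0 1 * g 1 1);
    g 0 0 * g 0 1, g 0 0 ^ 2, -g 0 1 ^ 2; -(g 1 0 * g 1 1), -g 1 0 ^ 2, g 1 1 ^ 2]

theorem S2_mul (a b : M2 F) : S2 (a * b) = S2 a * S2 b := by
  ext i j; fin_cases i <;> fin_cases j <;>
    simp [S2, Matrix.mul_apply, Fin.sum_univ_succ] <;> ring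

theorem S2_one : S2 (1 : M2 F) = 1 := by
  ext i j; fin_cases i <;> fin_cases j <;> simp [S2]

theorem InM.ne {n : Type} [Fintype n] [DecidableEq n] [Nonempty n] {X : Subgroup (GL n F)} {c : F}
    {Y : Matrix n n F} (h : InM X (c • Y)) : c ≠ 0 := by
  rintro rfl
  obtain ⟨g, -, e⟩ := h
  exact g.ne_zero (by rw [e, zero_smul])

/-- pull-back along the symmetric square, up to scalars -/
def PB (X : Subgroup (GL (Fin 3) F)) : Subgroup (GL (Fin 2) F) where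
  carrier := {g | ∃ c : F, InM X (c • S2 g.1)}
  one_mem' := ⟨1, (InM.of X.one_mem).congr (by simp [S2_one])⟩
  mul_mem' := fun ⟨c, hc⟩ ⟨d, hd⟩ => ⟨c * d, (hc.mul hd).congr (by
    rw [Units.val_mul, S2_mul, smul_mul_smul_comm])⟩
  inv_mem' := fun {g} ⟨c, hc⟩ => ⟨c⁻¹, hc.inv (by
    rw [smul_mul_smul_comm, ← S2_mul, Units.mul_inv, S2_one, mul_inv_cancel₀ (InM.ne hc), one_smul])⟩

theorem inM_PB {X : Subgroup (GL (Fin 3) F)} {Y : M2 F} (hY : Y.det ≠ 0) {c : F}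
    (h : InM X (c • S2 Y)) : InM (PB X) Y :=
  ⟨GeneralLinearGroup.mkOfDetNeZero Y hY, ⟨c, h⟩, rfl⟩

namespace Hy

variable {p : ℕ} {ω : F} (h : Hy p ω M)
include h

theorem exu : ∃ g : CC M, g.1.1 = uu ω ∧ (rp h.two M g).1 = !![1, 0, 0; 0, ω, 0; 0, 0, ω ^ 4] ∧
    (rm h.two M g).1 = !![ω, 0; 0, ω ^ 4] := by
  obtain ⟨g, hg⟩ := ex_CC h.two h.hu (by mc)
  have := h.two
  refine ⟨g, hg, ?_, ?_⟩ <;> simp only [rp, rm, rs'_val, hg] <;> mcc <;> field_simp <;> ring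

theorem exδ : ∃ g : CC M, g.1.1 = δ ∧ (rp h.two M g).1 = !![-1, 0, 0; 0, 0, -1; 0, -1, 0] ∧
    (rm h.two M g).1 = !![0, 1; -1, 0] := by
  obtain ⟨g, hg⟩ := ex_CC h.two h.hδ (by mc)
  have := h.two
  refine ⟨g, hg, ?_, ?_⟩ <;> simp only [rp, rm, rs'_val, hg] <;> mcc <;> field_simp <;> ring

theorem exσ : ∃ g : CC M, g.1.1 = σ ∧ (rp h.two M g).1 = 1 ∧ (rm h.two M g).1 = -1 := by
  obtain ⟨g, hg⟩ := ex_CC h.two h.hσ rfl
  have := h.two
  refine ⟨g, hg, ?_, ?_⟩ <;> simp only [rp, rm, rs'_val, hg] <;> mcc <;> field_simp <;> ring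

theorem exφ : ∃ g : CC M, ∃ c : F, 5 * c ^ 2 = 1 ∧ (rp h.two M g).1 =
    c • !![1, 2, 2; 1, ω + ω ^ 4, ω ^ 2 + ω ^ 3; 1, ω ^ 2 + ω ^ 3, ω + ω ^ 4] ∧
    (rm h.two M g).1 = c • !![ω - ω ^ 4, ω ^ 2 - ω ^ 3; ω ^ 2 - ω ^ 3, -(ω - ω ^ 4)] := by
  obtain ⟨c, hc, hφ⟩ := h.hφ
  obtain ⟨g, hg⟩ := ex_CC h.two hφ (by mc)
  have := h.two
  refine ⟨g, c, hc, ?_, ?_⟩ <;> simp only [rp, rm, rs'_val, hg] <;> mcc <;> field_simp <;> ring

theorem TD (hn : ¬ SLin M) (g : CC M) {a b c d e : F}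
    (e1 : (rp h.two M g).1 = !![a, 0, 0; 0, b, 0; 0, 0, c]) (e2 : (rm h.two M g).1 = !![d, 0; 0, e]) :
    (b = d ∨ b = -d) ∧ (c = e ∨ c = -e) ∧ a * b * c * d * e = 1 := by
  have h2 := h.two
  have e0 : g.1.1 = !![a,0,0,0,0; 0,(b+d)/2,0,0,(b-d)/2; 0,0,(c+e)/2,(c-e)/2,0;
      0,0,(c-e)/2,(c+e)/2,0; 0,(b-d)/2,0,0,(b+d)/2] := by
    rw [CC_dec h2, e1, e2]; mcc <;> ring
  obtain ⟨x, hx⟩ := mem_HH ((InM.of g.2.1).congr e0) (by mc) (by mc) (by mc)
  refine ⟨?_, ?_, ?_⟩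
  · rcases h.T1 hn x (a := (b + d) / 2) (b := (b - d) / 2) (by rw [r1, rs'_val, hx]; mc) with k | k
    · right; field_simp at k; linear_combination k
    · left; field_simp at k; linear_combination k
  · rcases h.T2 hn x (a := (c + e) / 2) (b := (c - e) / 2) (by rw [r2, rs'_val, hx]; mc) with k | k
    · right; field_simp at k; linear_combination k
    · left; field_simp at k; linear_combination k
  · let P : M5 F := !![1,0,0,0,0; 0,1,0,1,0; 0,0,1,0,1; 0,0,1,0,-1; 0,1,0,-1,0]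
    let Q : M5 F := !![1,0,0,0,0; 0,2⁻¹,0,0,2⁻¹; 0,0,2⁻¹,2⁻¹,0; 0,2⁻¹,0,0,-2⁻¹; 0,0,2⁻¹,-2⁻¹,0]
    have k1 : Q * P = 1 := by
      ext i j; fin_cases i <;> fin_cases j <;> simp [P, Q, Matrix.mul_apply, Fin.sum_univ_succ] <;>
        exact half h2
    have k2 : g.1.1 * P = P * diagonal ![a, b, c, d, e] := by
      rw [e0]
      ext i j; fin_cases i <;> fin_cases j <;> simp [P, Matrix.mul_apply, Fin.sum_univ_succ] <;>
        field_simp <;> ring
    have k3 := congrArg Matrix.det k2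
    have k4 := congrArg Matrix.det k1
    rw [det_mul, det_mul, h.det _ g.2.1, det_diagonal, Fin.prod_univ_five] at k3
    rw [det_mul, det_one] at k4
    simp at k3
    linear_combination (-Q.det) * k3 - (a * b * c * d * e - 1) * k4

theorem no_x0 (hn : ¬ SLin M) (x : CC M) (e1 : (rp h.two M x).1 = !![1, 0, 0; 0, -1, 0; 0, 0, -1])
    (e2 : rm h.two M x = 1) : False := by
  have w0 := om0 h.om
  have h5 := om5 h.om
  have hm := h.om
  obtain ⟨u, -, u1, -⟩ := h.exu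
  obtain ⟨s, -, s1, -⟩ := h.exδ
  obtain ⟨f, c, hc, f1, -⟩ := h.exφ
  have a2 : (ω + ω ^ 4) ^ 2 + (ω + ω ^ 4) - 1 = 0 := by
    linear_combination hm + (ω ^ 3 + 2) * h5
  rw [show ω ^ 2 + ω ^ 3 = -1 - (ω + ω ^ 4) by linear_combination hm] at f1
  generalize ω + ω ^ 4 = α at a2 f1
  have al0 : α ≠ 0 := fun e => by rw [e] at a2; simp at a2
  have ka : InM (PB (rp h.two M).range) !![ω ^ 3, 0; 0, ω ^ 2] :=
    inM_PB (c := 1) (by simp [det_fin_two, w0]) ⟨_, ⟨u, rfl⟩, by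
      rw [u1]; ext i j; fin_cases i <;> fin_cases j <;> simp [S2]
      · linear_combination -h5
      · linear_combination (-ω) * h5
      · ring⟩
  obtain ⟨s', ks, es⟩ : InM (PB (rp h.two M).range) !![0, 1; -1, 0] :=
    inM_PB (c := 1) (by simp [det_fin_two]) ⟨_, ⟨s, rfl⟩, by
      rw [s1]; ext i j; fin_cases i <;> fin_cases j <;> simp [S2]⟩
  obtain ⟨f', kf, ef⟩ : InM (PB (rp h.two M).range) !![α, 1; 1, -α] :=
    inM_PB (c := c * (1 + α)) (by
      rw [det_fin_two_of]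
      intro e
      apply h.five
      linear_combination (-α - 2) * a2 - (α + 3) * e) ⟨_, ⟨f, rfl⟩, by
      rw [f1]; ext i j; fin_cases i <;> fin_cases j <;> simp [S2] <;> grind⟩
  have kx : InM (PB ((rm h.two M).ker.map (rp h.two M))) !![1, 0; 0, -1] :=
    inM_PB (c := -1) (by simp [det_fin_two]) ⟨_, ⟨x, e2, rfl⟩, by
      rw [e1]; ext i j; fin_cases i <;> fin_cases j <;> simp [S2]⟩
  have n23 : ω ^ 3 ≠ ω ^ 2 := om_ne hm h.five (by norm_num)
  have h2 := h.two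
  rcases dick h.pf (pow_ne_zero 3 w0) (pow_ne_zero 2 w0)
    (by rw [← pow_mul, ← pow_mul, mul_comm, pow_mul, mul_comm 2, pow_mul, h5, one_pow, one_pow]) n23 ka
    ⟨s', ks, by simp [es]⟩ ⟨f', kf, by simp [ef, al0]⟩ with k | k
  · have hJ := slin_of_normal (J := PB ((rm h.two M).ker.map (rp h.two M))) w0
      (om_pow hm h.five (by norm_num)) (by
        rintro G G' _ hG hG' ⟨y, ⟨d, _, ⟨z, z0, rfl⟩, hz⟩, rfl⟩
        obtain ⟨g, ⟨d', _, ⟨w, rfl⟩, hw⟩, rfl⟩ := k G hG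
        have hd' : d' ≠ 0 := InM.ne ⟨_, (⊤ : Subgroup _).mem_carrier.1 trivial, hw⟩
        refine ⟨g * y * g⁻¹, ⟨d, _, ⟨w * z * w⁻¹, (MonoidHom.normal_ker _).conj_mem z z0 w, rfl⟩, ?_⟩, ?_⟩
        · rw [map_mul, map_mul, map_inv, Units.val_mul, Units.mul_inv_eq_iff_eq_mul, Units.val_mul,
            hw, hz, smul_mul_smul_comm, smul_mul_smul_comm, ← S2_mul, ← S2_mul, ← Units.val_mul,
            ← Units.val_mul, mul_comm d, inv_mul_cancel_right]
        · rw [Units.val_mul, Units.val_mul, Units.inv_eq_of_mul_eq_one_right hG']) kx (by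
        rintro ⟨c, hc⟩
        have a := congrFun (congrFun hc 0) 0
        have b := congrFun (congrFun hc 1) 1
        simp at a b
        exact h2 (by linear_combination a - b))
    obtain ⟨_, ⟨d, _, ⟨z, z0, rfl⟩, hz⟩, e⟩ := hJ !![ω ^ 3, 0; 0, ω ^ 2] (by
      rw [det_fin_two_of]; linear_combination h5)
    obtain ⟨k1, k2, -⟩ := h.TD hn z (a := d) (b := d * ω) (c := d * ω ^ 4) (d := 1) (e := 1) (by
      rw [hz, e]; ext i j; fin_cases i <;> fin_cases j <;> simp [S2] <;> grind) (by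
      rw [show rm h.two M z = 1 from z0]; ext i j; fin_cases i <;> fin_cases j <;> simp)
    have k3 : (d * ω) ^ 2 = 1 := by rcases k1 with k | k <;> rw [k] <;> ring
    have k4 : (d * ω ^ 4) ^ 2 = 1 := by rcases k2 with k | k <;> rw [k] <;> ring
    exact om_pow hm h.five (k := 6) (by norm_num) (by linear_combination k4 - ω ^ 6 * k3)
  · obtain ⟨x', ⟨d, hx'⟩, ex⟩ := kx
    obtain ⟨a', ka, ea⟩ := ka
    refine k.not_comm (s := x') (x := a') ⟨d, hx'.mono (Subgroup.map_le_range _ _)⟩ ka ?_ ?_ ?_ ?_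
    · rw [← map_mul, mk_eq_one_iff]; simp [ex, mul_apply, Fin.sum_univ_succ]
    · rw [Ne, mk_eq_one_iff]; simp [ex]
      intro e; exact h2 (by linear_combination e)
    · rw [← map_mul, Ne, mk_eq_one_iff]
      simp only [Units.val_mul, ea]
      rintro ⟨-, -, e⟩
      simp [mul_apply, Fin.sum_univ_succ] at e
      exact om_ne hm h.five (k := 6) (l := 4) (by norm_num) (by linear_combination e)
    · have : a' * x' = x' * a' := by
        apply Units.ext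
        rw [Units.val_mul, Units.val_mul, ea, ex]; mc
      rw [← map_mul ProjGenLinGroup.mk, ← map_mul ProjGenLinGroup.mk, this]

theorem diag_of_u {X : M3 F}
    (e : X * !![1, 0, 0; 0, ω, 0; 0, 0, ω ^ 4] = !![1, 0, 0; 0, ω, 0; 0, 0, ω ^ 4] * X) :
    X = !![X 0 0, 0, 0; 0, X 1 1, 0; 0, 0, X 2 2] := by
  have n1 : ω - 1 ≠ 0 := sub_ne_zero.2 (by simpa using om_pow h.om h.five (k := 1) (by norm_num))
  have n4 : ω ^ 4 - 1 ≠ 0 := sub_ne_zero.2 (om_pow h.om h.five (by norm_num))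
  have n3 : ω ^ 4 - ω ≠ 0 := sub_ne_zero.2 (by simpa using om_ne h.om h.five (k := 4) (l := 1) (by norm_num))
  have a01 := congrFun (congrFun e 0) 1
  have a02 := congrFun (congrFun e 0) 2
  have a10 := congrFun (congrFun e 1) 0
  have a12 := congrFun (congrFun e 1) 2
  have a20 := congrFun (congrFun e 2) 0
  have a21 := congrFun (congrFun e 2) 1
  simp only [Matrix.mul_apply, Fin.sum_univ_three, of_apply, cons_val, mul_zero, zero_mul, add_zero,
    zero_add, one_mul, mul_one] at a01 a02 a10 a12 a20 a21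
  ext i j; fin_cases i <;> fin_cases j <;> simp
  · exact mul_left_cancel₀ n1 (by linear_combination a01)
  · exact mul_left_cancel₀ n4 (by linear_combination a02)
  · exact mul_left_cancel₀ n1 (by linear_combination -a10)
  · exact mul_left_cancel₀ n3 (by linear_combination a12)
  · exact mul_left_cancel₀ n4 (by linear_combination -a20)
  · exact mul_left_cancel₀ n3 (by linear_combination -a21)

theorem diag_triv (hn : ¬ SLin M) (x : CC M) {a b c : F}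
    (e1 : (rp h.two M x).1 = !![a, 0, 0; 0, b, 0; 0, 0, c]) (e2 : rm h.two M x = 1) : x = 1 := by
  obtain ⟨k1, k2, k3⟩ := h.TD hn x e1 (d := 1) (e := 1) (by
    rw [e2]; ext i j; fin_cases i <;> fin_cases j <;> simp)
  obtain ⟨s, -, s1, -⟩ := h.exδ
  have e3 : (rp h.two M (s * x * s⁻¹ * x)).1 = !![a * a, 0, 0; 0, c * b, 0; 0, 0, b * c] := by
    rw [map_mul, map_mul, map_mul, map_inv, Units.val_mul, Units.val_mul, Units.val_mul,
      Units.inv_eq_of_mul_eq_one_right (a := !![-1, 0, 0; 0, 0, -1; 0, -1, 0]) (by rw [s1]; mc), s1, e1]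
    mc
  have e4 : rm h.two M (s * x * s⁻¹ * x) = 1 := by
    rw [map_mul, map_mul, map_mul, e2, map_inv]; simp
  rcases k1 with rfl | rfl <;> rcases k2 with rfl | rfl
  · refine CC_ext h.two (Units.ext ?_) (by rw [e2, map_one])
    rw [e1, map_one, show a = 1 by linear_combination k3]; mc
  · exact (h.no_x0 hn _ (by rw [e3, show a = -1 by linear_combination -k3]; simp) e4).elim
  · exact (h.no_x0 hn _ (by rw [e3, show a = -1 by linear_combination -k3]; simp) e4).elim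
  · exact (h.no_x0 hn _ (by rw [e1, show a = 1 by linear_combination k3]) e2).elim

end Hy

end Cfsg.Agent.H5.C5
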