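import Cfsg.Agent.H5.C5.Cent

/-! The kernel of the centraliser of `σ` on the `-1`-eigenspace is trivial. -/

set_option autoImplicit false
set_option linter.unusedSimpArgs false
set_option linter.unusedSectionVars false
set_option linter.unusedVariables false

namespace Cfsg.Agent.H5.C5

open Matrix Cfsg.Agent.H5.T3 Cfsg.Agent.H8

variable {F : Type*} [Field F] {M : Subgroup (GL (Fin 5) F)}

/-- conjugation by `u` minus a scalar -/
def Dw (ω c : F) (X : M3 F) : M3 F :=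
  !![(1 - c) * X 0 0, (ω ^ 4 - c) * X 0 1, (ω - c) * X 0 2;
    (ω - c) * X 1 0, (1 - c) * X 1 1, (ω ^ 2 - c) * X 1 2;
    (ω ^ 4 - c) * X 2 0, (ω ^ 3 - c) * X 2 1, (1 - c) * X 2 2]

theorem Dw_eq {ω : F} (h5 : ω ^ 5 = 1) (c : F) (X : M3 F) :
    !![1, 0, 0; 0, ω, 0; 0, 0, ω ^ 4] * X * !![1, 0, 0; 0, ω ^ 4, 0; 0, 0, ω] - c • X = Dw ω c X := by
  ext i j; fin_cases i <;> fin_cases j <;>
    simp [Dw, Matrix.mul_apply, Matrix.vecMul, dotProduct, Fin.sum_univ_succ] <;> grind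

/-- a commutative subspace of `M₃` invariant under the icosahedral group is diagonal. -/
theorem diag_of_comm {ω c : F} (hm : ω ^ 4 + ω ^ 3 + ω ^ 2 + ω + 1 = 0) (h5 : (5 : F) ≠ 0)
    (h2 : (2 : F) ≠ 0) (hc : 5 * c ^ 2 = 1) (B : Submodule F (M3 F))
    (hB : ∀ X ∈ B, ∀ Y ∈ B, X * Y = Y * X)
    (hu : ∀ X ∈ B, !![1, 0, 0; 0, ω, 0; 0, 0, ω ^ 4] * X * !![1, 0, 0; 0, ω ^ 4, 0; 0, 0, ω] ∈ B)
    (hδ : ∀ X ∈ B, !![-1, 0, 0; 0, 0, -1; 0, -1, 0] * X * !![-1, 0, 0; 0, 0, -1; 0, -1, 0] ∈ B)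
    (hφ : ∀ X ∈ B, (c • !![1, 2, 2; 1, ω + ω ^ 4, ω ^ 2 + ω ^ 3; 1, ω ^ 2 + ω ^ 3, ω + ω ^ 4]) * X *
      (c • !![1, 2, 2; 1, ω + ω ^ 4, ω ^ 2 + ω ^ 3; 1, ω ^ 2 + ω ^ 3, ω + ω ^ 4]) ∈ B) :
    ∀ X ∈ B, X = !![X 0 0, 0, 0; 0, X 1 1, 0; 0, 0, X 2 2] := by
  have k5 := om5 hm
  have hD : ∀ d, ∀ X ∈ B, Dw ω d X ∈ B := fun d X hX =>
    Dw_eq k5 d X ▸ B.sub_mem (hu X hX) (B.smul_mem d hX)
  have hδ' : ∀ X ∈ B, !![X 0 0, X 0 2, X 0 1; X 2 0, X 2 2, X 2 1; X 1 0, X 1 2, X 1 1] ∈ B := by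
    intro X hX
    convert hδ X hX using 1
    ext i j; fin_cases i <;> fin_cases j <;>
      simp [Matrix.mul_apply, Matrix.vecMul, dotProduct, Fin.sum_univ_succ]
  have ne : ∀ k l : ℕ, (k + 4 * l) % 5 ≠ 0 → ω ^ k - ω ^ l ≠ 0 := fun k l e =>
    sub_ne_zero.2 (om_ne hm h5 e)
  have c0 : c ≠ 0 := by rintro rfl; simp at hc
  have a2 : (ω + ω ^ 4) ^ 2 + (ω + ω ^ 4) - 1 = 0 := by
    linear_combination hm + (ω ^ 3 + 2) * k5
  have al0 : ω + ω ^ 4 ≠ 0 := fun e => by rw [e] at a2; simp at a2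
  have s1 : ∀ X ∈ B, X 1 2 = 0 := by
    intro X hX
    have k := hD (ω ^ 3) _ (hD (ω ^ 4) _ (hD (ω ^ 1) _ (hD (ω ^ 0) X hX)))
    set t := (ω ^ 2 - ω ^ 3) * ((ω ^ 2 - ω ^ 4) * ((ω ^ 2 - ω ^ 1) * ((ω ^ 2 - ω ^ 0) * X 1 2))) with ht
    have e : Dw ω (ω ^ 3) (Dw ω (ω ^ 4) (Dw ω (ω ^ 1) (Dw ω (ω ^ 0) X))) =
        !![0, 0, 0; 0, 0, t; 0, 0, 0] := by
      ext i j; fin_cases i <;> fin_cases j <;> simp [Dw, ht]
    rw [e] at k
    have := congrFun (congrFun (hB _ k _ (hδ' _ k)) 1) 1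
    simp [Matrix.mul_apply, Fin.sum_univ_succ] at this
    rw [ht] at this
    exact (mul_eq_zero.1 ((mul_eq_zero.1 ((mul_eq_zero.1 ((mul_eq_zero.1 this).resolve_left
      (ne _ _ (by norm_num)))).resolve_left (ne _ _ (by norm_num)))).resolve_left
      (ne _ _ (by norm_num)))).resolve_left (ne _ _ (by norm_num))
  have s1' : ∀ X ∈ B, X 2 1 = 0 := fun X hX => by simpa using s1 _ (hδ' X hX)
  have s2 : ∀ X ∈ B, X 0 2 = 0 ∧ X 1 0 = 0 := by
    intro X hX
    have k := hD (ω ^ 4) _ (hD (ω ^ 0) X hX)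
    have n : (ω ^ 1 - ω ^ 4) * (ω ^ 1 - ω ^ 0) ≠ 0 := mul_ne_zero (ne _ _ (by norm_num)) (ne _ _ (by norm_num))
    set t := (ω ^ 1 - ω ^ 4) * (ω ^ 1 - ω ^ 0) with ht
    have e : Dw ω (ω ^ 4) (Dw ω (ω ^ 0) X) = !![0, 0, t * X 0 2; t * X 1 0, 0, 0; 0, 0, 0] := by
      ext i j; fin_cases i <;> fin_cases j <;> simp [Dw, ht, s1 X hX, s1' X hX, mul_assoc]
    rw [e] at k
    have k1 := congrFun (congrFun (hB _ k _ (hδ' _ k)) 1) 1
    have k2 := s1 _ (hφ _ k)
    simp [Matrix.mul_apply, Matrix.vecMul, dotProduct, Fin.sum_univ_succ, n, c0] at k1 k2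
    have k3 : X 0 2 + 2 * X 1 0 = 0 :=
      mul_left_cancel₀ (mul_ne_zero (mul_ne_zero n al0) (pow_ne_zero 2 c0)) (by linear_combination k2)
    rcases k1 with k1 | k1
    · exact ⟨by linear_combination k3 - 2 * k1, k1⟩
    · exact ⟨k1, mul_left_cancel₀ h2 (by linear_combination k3 - k1)⟩
  intro X hX
  have s3 := s2 _ (hδ' X hX)
  simp at s3
  ext i j; fin_cases i <;> fin_cases j <;> simp [s1 X hX, s1' X hX, s2 X hX, s3]

namespace Hy

variable {p : ℕ} {ω : F} (h : Hy p ω M)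
include h

theorem φp_sq {c : F} (hc : 5 * c ^ 2 = 1) :
    (c • !![1, 2, 2; 1, ω + ω ^ 4, ω ^ 2 + ω ^ 3; 1, ω ^ 2 + ω ^ 3, ω + ω ^ 4] : M3 F) *
      (c • !![1, 2, 2; 1, ω + ω ^ 4, ω ^ 2 + ω ^ 3; 1, ω ^ 2 + ω ^ 3, ω + ω ^ 4]) = 1 := by
  have hm := h.om
  ext i j; fin_cases i <;> fin_cases j <;> simp [Matrix.mul_apply, Fin.sum_univ_succ] <;> grind

theorem ker_triv (hn : ¬ SLin M) (x : CC M) (hx : rm h.two M x = 1) : x = 1 := by
  haveI := h.fin
  set L := (rm h.two M).ker with hL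
  obtain ⟨u, u0, u1, u2⟩ := h.exu
  obtain ⟨s, -, s1, -⟩ := h.exδ
  obtain ⟨f, c, hc, f1, -⟩ := h.exφ
  have h5 := om5 h.om
  let φ : Monoid.End L := (MulAut.conjNormal u : MulAut L).toMonoidHom
  have hφ : ∀ (n : ℕ) (y : L), ((φ^[n] y : L) : CC M) = u ^ n * y * (u ^ n)⁻¹ := by
    intro n
    induction n with
    | zero => simp
    | succ n ih =>
      intro y
      rw [Function.iterate_succ_apply']
      show u * (φ^[n] y : L) * u⁻¹ = _
      rw [ih, pow_succ']; group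
  have u5 : u ^ 5 = 1 := by
    apply Subtype.ext; apply Units.ext
    rw [SubmonoidClass.coe_pow, Units.val_pow_eq_pow_val, u0]
    have : (uu ω : M5 F) = diagonal ![1, ω, ω ^ 4, ω ^ 4, ω] := by mc
    have h45 : (ω ^ 4) ^ 5 = 1 := by rw [← pow_mul, mul_comm, pow_mul, h5, one_pow]
    rw [this, diagonal_pow]
    ext i j; fin_cases i <;> fin_cases j <;> simp [h5, h45]
  have hnil : Group.IsNilpotent L := H4.Th.fpf_nilpotent (φ := φ) Nat.prime_five
    (funext fun y => Subtype.ext (by rw [hφ, u5]; simp)) (by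
      intro y hy
      have e : u * y * u⁻¹ = y := congrArg Subtype.val hy
      rw [mul_inv_eq_iff_eq_mul] at e
      have e' := congrArg (fun z => (rp h.two M z).1) e
      simp only [map_mul, Units.val_mul, u1] at e'
      exact Subtype.ext (h.diag_triv hn y (h.diag_of_u e'.symm) y.2))
  by_contra hx1
  haveI : Nontrivial L := ⟨⟨x, hx⟩, 1, fun e => hx1 (congrArg Subtype.val e)⟩
  obtain ⟨⟨z, hz⟩, hz1⟩ := Subgroup.ne_bot_iff_exists_ne_one.1 (Group.IsNilpotent.center_ne_bot L)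
  let S : Set (M3 F) := {X | ∃ y ∈ Subgroup.center L, (rp h.two M y).1 = X}
  have inv : ∀ (w : CC M) (G G' : M3 F), (rp h.two M w).1 = G → G * G' = 1 →
      ∀ X ∈ Submodule.span F S, G * X * G' ∈ Submodule.span F S := by
    intro w G G' e1 e2 X hX
    induction hX using Submodule.span_induction with
    | mem X hX =>
      obtain ⟨y, hy, rfl⟩ := hX
      refine Submodule.subset_span ⟨MulAut.conjNormal w y, ?_, ?_⟩
      · exact (Subgroup.characteristic_iff_le_comap.1 inferInstance (MulAut.conjNormal w)) hy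
      · show (rp h.two M (w * y * w⁻¹)).1 = _
        rw [map_mul, map_mul, map_inv, Units.val_mul, Units.val_mul, e1,
          Units.inv_eq_of_mul_eq_one_right (e1 ▸ e2)]
    | zero => simp
    | add X Y _ _ a b => rw [mul_add, add_mul]; exact add_mem a b
    | smul c X _ a => rw [mul_smul_comm, smul_mul_assoc]; exact Submodule.smul_mem _ c a
  have := diag_of_comm h.om h.five h.two hc (Submodule.span F S) (by
      intro X hX Y hY
      induction hX, hY using Submodule.span_induction₂ with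
      | mem_mem X Y hX hY =>
        obtain ⟨a, ha, rfl⟩ := hX
        obtain ⟨b, hb, rfl⟩ := hY
        rw [← Units.val_mul, ← Units.val_mul, ← map_mul, ← map_mul, ← Subgroup.coe_mul,
          Subgroup.mem_center_iff.1 hb a, Subgroup.coe_mul]
      | zero_left => simp
      | zero_right => simp
      | add_left X Y Z _ _ _ a b => rw [add_mul, mul_add, a, b]
      | add_right X Y Z _ _ _ a b => rw [add_mul, mul_add, a, b]
      | smul_left c X Y _ _ a => rw [smul_mul_assoc, mul_smul_comm, a]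
      | smul_right c X Y _ _ a => rw [smul_mul_assoc, mul_smul_comm, a])
    (inv u _ _ u1 (by
      ext i j; fin_cases i <;> fin_cases j <;> simp [Matrix.mul_apply, Fin.sum_univ_succ] <;>
        linear_combination h5)) (inv s _ _ s1 (by mc)) (inv f _ _ f1 (h.φp_sq hc)) _
    (Submodule.subset_span ⟨z, hz, rfl⟩)
  exact hz1 (Subtype.ext (Subtype.ext (h.diag_triv hn z this z.2)))

theorem rm_inj (hn : ¬ SLin M) : Function.Injective (rm h.two M) :=
  (injective_iff_map_eq_one _).2 (h.ker_triv hn)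

end Hy

theorem unip3_pow {N : M3 F} (h2 : (2 : F) ≠ 0) (h : N * N * N = 0) (m : ℕ) :
    (1 + N) ^ m = 1 + (m : F) • N + ((m : F) * (m - 1) / 2) • (N * N) := by
  induction m with
  | zero => simp
  | succ m ih =>
    rw [pow_succ, ih]
    simp only [add_mul, mul_add, Matrix.one_mul, Matrix.mul_one, smul_mul_assoc, h, smul_zero]
    push_cast
    have : ((m : F) + 1) * (m + 1 - 1) / 2 = m * (m - 1) / 2 + m := by field_simp; ring
    rw [this]
    module

/-- elements fixing the first basis vector -/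
def Fx0 (F : Type*) [Field F] : Subgroup (GL (Fin 3) F) where
  carrier := {g | g.1 *ᵥ ![1, 0, 0] = ![1, 0, 0]}
  one_mem' := by simp
  mul_mem' {a b} ha hb := by
    simp only [Set.mem_setOf_eq, Units.val_mul] at *
    rw [← mulVec_mulVec, hb, ha]
  inv_mem' {a} ha := by
    simp only [Set.mem_setOf_eq] at *
    conv_lhs => rw [← ha]
    rw [mulVec_mulVec, Units.inv_mul, one_mulVec]

namespace Hy

variable {p : ℕ} {ω : F} (h : Hy p ω M)
include h

theorem not_slin (hn : ¬ SLin M) : ¬ SLin (rm h.two M).range := by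
  intro k
  haveI := h.pf.char
  have hp0 : (p : F) = 0 := CharP.cast_eq_zero F p
  have hi := h.rm_inj hn
  have h5 := om5 h.om
  have hm := h.om
  have h2 := h.two
  obtain ⟨u, u0, u1, u2⟩ := h.exu
  obtain ⟨s, -, s1, s2⟩ := h.exδ
  obtain ⟨f, c, hc, f1, f2⟩ := h.exφ
  obtain ⟨_, ⟨x, rfl⟩, e⟩ := k !![1, 1; 0, 1] (by simp [det_fin_two])
  have xp : x ^ p = 1 := hi (Units.ext (by
    rw [map_pow, Units.val_pow_eq_pow_val, e, up_pow, hp0, map_one]; mc))
  have x3 := unip h.pf (X := (rp h2 M x).1) (a := 1) (by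
    rw [pow_one, ← Units.val_pow_eq_pow_val, ← map_pow, xp, map_one, Units.val_one])
  obtain ⟨N, hN⟩ : ∃ N, (rp h2 M x).1 = 1 + N := ⟨(rp h2 M x).1 - 1, by abel⟩
  rw [hN, add_sub_cancel_left, Fintype.card_fin, pow_succ, pow_two] at x3
  obtain ⟨m, hm'⟩ := h.pf.cast (ω ^ 2)
  have ux : u * x = x ^ m * u := hi (Units.ext (by
    rw [map_mul, map_mul, map_pow, Units.val_mul, Units.val_mul, Units.val_pow_eq_pow_val, e, u2,
      up_pow, ← hm']
    mc
    linear_combination (-ω) * h5))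
  have e1 := congrArg (fun z => (rp h2 M z).1) ux
  simp only [map_mul, map_pow, Units.val_mul, Units.val_pow_eq_pow_val, hN, unip3_pow h2 x3, ← hm'] at e1
  generalize hU : (rp h2 M u).1 = U at e1
  have e2 : U * N = (ω ^ 2 • N + (ω ^ 2 * (ω ^ 2 - 1) / 2) • (N * N)) * U := by
    rw [mul_add, Matrix.mul_one, add_assoc, add_mul, Matrix.one_mul] at e1
    exact add_left_cancel e1
  have n4 : N * (N * N) = 0 := by rw [← Matrix.mul_assoc, x3]
  have e3 : U * (N * N) = (ω ^ 4 • (N * N)) * U := by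
    rw [← Matrix.mul_assoc, e2, Matrix.mul_assoc, e2, ← Matrix.mul_assoc]
    congr 1
    simp only [add_mul, mul_add, smul_mul_assoc, mul_smul_comm, x3, n4, Matrix.mul_assoc, smul_zero,
      Matrix.mul_zero, add_zero, smul_smul]
    ring_nf
  set Y := N - (2⁻¹ : F) • (N * N) with hY
  have e4 : U * Y = (ω ^ 2 • Y) * U := by
    rw [hY, mul_sub, mul_smul_comm, e2, e3, ← smul_mul_assoc (2⁻¹ : F), ← sub_mul]
    congr 1
    have : ω ^ 2 * (ω ^ 2 - 1) / 2 = 2⁻¹ * ω ^ 4 - 2⁻¹ * ω ^ 2 := by field_simp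
    rw [this]
    module
  have e5 : N = Y + (2⁻¹ : F) • (Y * Y) := by
    rw [hY]
    simp only [sub_mul, mul_sub, smul_mul_assoc, mul_smul_comm, x3, n4, Matrix.mul_assoc, smul_zero,
      Matrix.mul_zero, sub_zero]
    abel
  have ne : ∀ k l : ℕ, (k + 4 * l) % 5 ≠ 0 → ω ^ k - ω ^ l ≠ 0 := fun k l e =>
    sub_ne_zero.2 (om_ne hm h.five e)
  have y0 : Y *ᵥ ![1, 0, 0] = 0 := by
    rw [← hU, u1] at e4
    have a0 := congrFun (congrFun e4 0) 0
    have a1 := congrFun (congrFun e4 1) 0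
    have a2 := congrFun (congrFun e4 2) 0
    simp only [Matrix.mul_apply, Fin.sum_univ_three, of_apply, cons_val, mul_zero, zero_mul, add_zero,
      zero_add, one_mul, mul_one, Matrix.smul_apply, smul_eq_mul] at a0 a1 a2
    ext i; fin_cases i <;> simp [mulVec, dotProduct, Fin.sum_univ_succ]
    · exact mul_left_cancel₀ (ne 0 2 (by norm_num)) (by linear_combination a0)
    · exact mul_left_cancel₀ (ne 1 2 (by norm_num)) (by linear_combination a1)
    · exact mul_left_cancel₀ (ne 4 2 (by norm_num)) (by linear_combination a2)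
  have x0 : rp h2 M x ∈ Fx0 F := by
    show (rp h2 M x).1 *ᵥ _ = _
    rw [hN, e5, add_mulVec, add_mulVec, smul_mulVec, ← mulVec_mulVec, y0]; simp
  have x1 : rp h2 M (s * x⁻¹ * s⁻¹) ∈ Fx0 F := by
    have := (Fx0 F).inv_mem x0
    show (rp h2 M (s * x⁻¹ * s⁻¹)).1 *ᵥ _ = _
    rw [map_mul, map_mul, map_inv, map_inv, Units.val_mul, Units.val_mul,
      Units.inv_eq_of_mul_eq_one_right (u := rp h2 M s) (a := !![-1, 0, 0; 0, 0, -1; 0, -1, 0]) (by rw [s1]; mc), s1,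
      ← mulVec_mulVec, ← mulVec_mulVec]
    have e : (!![-1, 0, 0; 0, 0, -1; 0, -1, 0] : M3 F) *ᵥ ![1, 0, 0] = -![1, 0, 0] := by
      ext i; fin_cases i <;> simp [mulVec, dotProduct, Fin.sum_univ_succ]
    rw [e, mulVec_neg, show ((rp h2 M x)⁻¹).1 *ᵥ ![1, 0, 0] = ![1, 0, 0] from this, mulVec_neg, e, neg_neg]
  have e' : (rm h2 M (s * x⁻¹ * s⁻¹)).1 = !![1, 0; 1, 1] := by
    rw [map_mul, map_mul, map_inv, map_inv, Units.val_mul, Units.val_mul,
      Units.inv_eq_of_mul_eq_one_right (u := rm h2 M s) (a := !![0, -1; 1, 0]) (by rw [s2]; mc),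
      Units.inv_eq_of_mul_eq_one_right (u := rm h2 M x) (a := !![1, -1; 0, 1]) (by rw [e]; mc), s2]
    mc
  have hX := slin_of (X := ((Fx0 F).comap (rp h2 M)).map (rm h2 M)) (fun t => by
      obtain ⟨n, rfl⟩ := h.pf.cast t
      exact (InM.pow ⟨_, Subgroup.mem_map_of_mem _ (Subgroup.mem_comap.2 x0), e⟩ n).congr (by rw [up_pow, mul_one])) (fun t => by
      obtain ⟨n, rfl⟩ := h.pf.cast t
      exact (InM.pow ⟨_, Subgroup.mem_map_of_mem _ (Subgroup.mem_comap.2 x1), e'⟩ n).congr (by rw [lo_pow, mul_one]))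
  obtain ⟨_, ⟨g, hg, rfl⟩, eg⟩ := hX (rm h2 M f).1 (by
    rw [f2, det_smul, det_fin_two_of]; simp; grind)
  obtain rfl := hi (Units.ext eg)
  have : (rp h2 M g).1 *ᵥ ![1, 0, 0] = ![1, 0, 0] := hg
  have := congrFun this 1
  rw [f1] at this
  simp [mulVec, dotProduct, Fin.sum_univ_succ] at this
  rw [this] at hc; simp at hc

end Hy

end Cfsg.Agent.H5.C5
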