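import Cfsg.Agent.H5.C5.Cent2
import Cfsg.Agent.H5.C5.Grp

/-! The overgroups of the normaliser of `5^{1+2}` in `SL₅(p)`. -/

set_option autoImplicit false
set_option linter.unusedSimpArgs false
set_option linter.unusedSectionVars false
set_option linter.unusedVariables false

namespace Cfsg.Agent.H5.C5

open Matrix Cfsg.Agent.H5.T3 Cfsg.Agent.H8
open Matrix.ProjGenLinGroup (mk)

variable {F : Type*} [Field F] {M N : Subgroup (GL (Fin 5) F)}

namespace Hy

variable {p : ℕ} {ω : F} (h : Hy p ω M)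
include h

theorem mono {M' : Subgroup (GL (Fin 5) F)} (hM : M ≤ M') (hd : ∀ g ∈ M', g.1.det = 1) : Hy p ω M' :=
  ⟨h.pf, h.om, h.five, h.two, h.hρ.mono hM, h.hτ.mono hM, h.hu.mono hM, h.hδ.mono hM,
    let ⟨c, hc, k⟩ := h.hφ; ⟨c, hc, k.mono hM⟩, hd⟩

theorem scal (hn : ¬ SLin M) (k : CC M) (hk : ProjGenLinGroup.mk (rm h.two M k) = 1) :
    ∃ a : F, a ^ 5 = 1 ∧ (rm h.two M k).1.det = a ^ 2 ∧ (k.1.1 = a • 1 ∨ k.1.1 = a • σ) := by
  have h2 := h.two
  obtain ⟨k1, k2, k3⟩ := mk_eq_one_iff.1 hk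
  obtain ⟨d, hd⟩ : ∃ d : F, (rm h2 M k).1 = !![d, 0; 0, d] :=
    ⟨(rm h2 M k).1 1 1, by ext i j; fin_cases i <;> fin_cases j <;> simp [k1, k2, k3]⟩
  have cm : ∀ w, (rp h2 M k).1 * (rp h2 M w).1 = (rp h2 M w).1 * (rp h2 M k).1 := fun w => by
    have : k * w = w * k := h.rm_inj hn (Units.ext (by
      rw [map_mul, map_mul, Units.val_mul, Units.val_mul, hd]
      ext i j; fin_cases i <;> fin_cases j <;> simp [Matrix.mul_apply, Fin.sum_univ_succ, mul_comm]))
    rw [← Units.val_mul, ← map_mul, this, map_mul, Units.val_mul]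
  obtain ⟨u, -, u1, -⟩ := h.exu
  obtain ⟨f, c, hc, f1, -⟩ := h.exφ
  have c0 : c ≠ 0 := by rintro rfl; simp at hc
  have e := h.diag_of_u (u1 ▸ cm u)
  generalize (rp h2 M k).1 0 0 = a at e
  generalize (rp h2 M k).1 1 1 = b at e
  generalize (rp h2 M k).1 2 2 = b' at e
  obtain ⟨t1, -, t3⟩ := h.TD hn k e hd
  have e1 := cm f
  rw [e, f1] at e1
  have a1 := congrFun (congrFun e1 1) 0
  have a2 := congrFun (congrFun e1 2) 0
  simp [Matrix.mul_apply, Fin.sum_univ_succ] at a1 a2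
  obtain rfl : b = a := mul_left_cancel₀ c0 (by linear_combination a1)
  obtain rfl : b' = b := mul_left_cancel₀ c0 (by linear_combination a2)
  have dd : d ^ 2 = b' ^ 2 := by rcases t1 with t | t <;> rw [t] <;> ring
  refine ⟨b', by linear_combination t3 - b' ^ 3 * dd, by rw [hd, det_fin_two_of]; linear_combination dd, ?_⟩
  rcases t1 with rfl | rfl
  · left; rw [CC_dec h2, e, hd]; mcc <;> field_simp <;> ring
  · right; rw [CC_dec h2, e, hd]; mcc <;> field_simp <;> ring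

theorem ex5 (hn : ¬ SLin M) (S : Subgroup (CC M))
    (hu : ∃ g ∈ S, (rm h.two M g).1 = !![ω, 0; 0, ω ^ 4])
    (hδ : ∃ g ∈ S, (rm h.two M g).1 = !![0, 1; -1, 0])
    (hφ : ∃ g ∈ S, ∃ c : F, c ≠ 0 ∧ (rm h.two M g).1 =
      c • !![ω - ω ^ 4, ω ^ 2 - ω ^ 3; ω ^ 2 - ω ^ 3, -(ω - ω ^ 4)]) : Ex5 (S.map (rm h.two M)) := by
  obtain ⟨u, uS, u1⟩ := hu
  obtain ⟨s, sS, s1⟩ := hδ
  obtain ⟨f, fS, c, c0, f1⟩ := hφ
  have w0 := om0 h.om
  have n14 : ω ≠ ω ^ 4 := by simpa using om_ne h.om h.five (k := 1) (l := 4) (by norm_num)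
  have n23 : ω ^ 2 ≠ ω ^ 3 := om_ne h.om h.five (by norm_num)
  refine (dick h.pf w0 (pow_ne_zero 4 w0) (by rw [← pow_mul, mul_comm, pow_mul, om5 h.om, one_pow]) n14
    ⟨_, Subgroup.mem_map_of_mem _ uS, u1⟩ ⟨_, Subgroup.mem_map_of_mem _ sS, by simp [s1]⟩
    ⟨_, Subgroup.mem_map_of_mem _ fS, by simp [f1, c0, sub_ne_zero.2 n14, sub_ne_zero.2 n23]⟩).resolve_left
    fun k => h.not_slin hn fun Y hY => (k Y hY).mono (Subgroup.map_le_range _ _)

theorem ex5_top (hn : ¬ SLin M) : Ex5 ((⊤ : Subgroup (CC M)).map (rm h.two M)) := by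
  obtain ⟨u, -, -, u2⟩ := h.exu
  obtain ⟨s, -, -, s2⟩ := h.exδ
  obtain ⟨f, c, hc, -, f2⟩ := h.exφ
  exact h.ex5 hn ⊤ ⟨u, trivial, u2⟩ ⟨s, trivial, s2⟩ ⟨f, trivial, c, by rintro rfl; simp at hc, f2⟩

end Hy

theorem cc_main {p : ℕ} {ω : F} (hN : Hy p ω N) (hNM : N ≤ M) (h : Hy p ω M) (hn : ¬ SLin M)
    (hsc : ∀ g ∈ M, (∃ a : F, g.1 = a • 1) → g ∈ N) (c : CC M) :
    c.1 ∈ N ∧ (rm h.two M c).1.det ^ 5 = 1 := by
  have h2 := h.two
  haveI := h.pf.fin
  let S : Subgroup (CC M) := N.subgroupOf (CC M) ⊓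
    (GeneralLinearGroup.det.comp (rm h2 M)).ker
  have tr : ∀ g : CC N, (rm h2 N g).1.det = 1 → ∃ g' ∈ S, (rm h2 M g').1 = (rm h2 N g).1 := fun g hg =>
    ⟨⟨g.1, hNM g.2.1, g.2.2⟩, ⟨g.2.1, Units.ext hg⟩, rfl⟩
  have hm := h.om
  have k1 := h.ex5 hn S (by
      obtain ⟨u, -, -, u2⟩ := hN.exu
      rw [← u2]; exact tr u (by rw [u2, det_fin_two_of]; linear_combination om5 hm)) (by
      obtain ⟨u, -, -, u2⟩ := hN.exδ
      rw [← u2]; exact tr u (by rw [u2, det_fin_two_of]; ring)) (by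
      obtain ⟨f, c, hc, -, f2⟩ := hN.exφ
      obtain ⟨g, hg, e⟩ := tr f (by rw [f2, det_smul, det_fin_two_of]; simp; grind)
      exact ⟨g, hg, c, by rintro rfl; simp at hc, e.trans f2⟩)
  have k2 := h.ex5_top hn
  have k3 := Subgroup.eq_of_le_of_card_ge
    (Subgroup.map_mono (f := mk) (Subgroup.map_mono (f := rm h2 M) (le_top (a := S))))
    (by rw [k1.1, k2.1])
  obtain ⟨_, ⟨s, hs, rfl⟩, e⟩ := k3.ge ⟨_, ⟨c, trivial, rfl⟩, rfl⟩
  obtain ⟨a, a5, ad, ha⟩ := h.scal hn (s⁻¹ * c) (by rw [map_mul, map_mul, map_inv, map_inv, e, inv_mul_cancel])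
  have ec : c = s * (s⁻¹ * c) := by group
  generalize s⁻¹ * c = k at *
  subst ec
  constructor
  · refine mul_mem hs.1 ?_
    rcases ha with ha | ha
    · exact hsc _ k.2.1 ⟨a, ha⟩
    · obtain ⟨z, hz, ez⟩ := hN.hσ
      have := mul_mem (hsc (k.1 * z) (mul_mem k.2.1 (hNM hz)) ⟨a, by
        rw [Units.val_mul, ha, ez, smul_mul_assoc, σσ]⟩) (inv_mem hz)
      rwa [mul_inv_cancel_right] at this
  · have : (rm h2 M s).1.det = 1 := congrArg Units.val hs.2
    rw [map_mul, Units.val_mul, det_mul, this, ad, one_mul, ← pow_mul, mul_comm, pow_mul, a5, one_pow]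

theorem main {p : ℕ} {ω : F} (hN : Hy p ω N) (hNM : N ≤ M) (hdet : ∀ g ∈ M, g.1.det = 1)
    (hsc : ∀ g ∈ M, (∃ a : F, g.1 * ρ ω = a • (ρ ω * g.1)) → (∃ b : F, g.1 * τ = b • (τ * g.1)) → g ∈ N) :
    SLin M ∨ M ≤ N := by
  refine or_iff_not_imp_left.2 fun hn => ?_
  have h := hN.mono hNM hdet
  have h2 := h.two
  haveI := h.fin
  have cm := cc_main hN hNM h hn fun g hg ⟨a, ha⟩ =>
    hsc g hg ⟨1, by rw [ha]; simp⟩ ⟨1, by rw [ha]; simp⟩
  obtain ⟨z0, hz0, ez⟩ := h.hσ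
  let z : M := ⟨z0, hz0⟩
  have zz : z * z = 1 := Subtype.ext (Units.ext (by
    show z0.1 * z0.1 = 1
    rw [ez, σσ]))
  have z1 : z ≠ 1 := fun e => by
    have := congrFun (congrFun (ez.symm.trans (congrArg (fun x : M => x.1.1) e)) 1) 1
    simp [σ] at this
  have zo : orderOf z = 2 := orderOf_eq_prime (by rw [pow_two, zz]) z1
  have inC : ∀ c : M, Commute c z → c.1 ∈ CC M := fun c hc =>
    mem_CC h2 c.2 (ez ▸ congrArg (fun x : M => x.1.1) hc)
  obtain ⟨O, hO, ho, hd⟩ := H4.BS.bs (uniq_inv z zo fun c hc c2 => by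
    let k : CC M := ⟨c.1, inC c hc⟩
    have k2 : k * k = 1 := Subtype.ext (by rw [pow_two] at c2; exact congrArg (fun x : M => x.1) c2)
    have k3 : (rm h2 M k).1 * (rm h2 M k).1 = 1 := by rw [← Units.val_mul, ← map_mul, k2, map_one]; rfl
    have k4 := congrArg det k3
    have k5 := (cm k).2
    rw [det_mul, det_one] at k4
    have k6 : (rm h2 M k).1.det = 1 := by
      generalize (rm h2 M k).1.det = D at *
      linear_combination k5 - D * (D ^ 2 + 1) * k4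
    obtain ⟨a, a5, -, ha⟩ := h.scal hn k (by
      rw [mk_eq_one_iff]
      have a00 := congrFun (congrFun k3 0) 0
      have a01 := congrFun (congrFun k3 0) 1
      have a10 := congrFun (congrFun k3 1) 0
      have a11 := congrFun (congrFun k3 1) 1
      rw [det_fin_two] at k6
      simp [-Units.val_mul, Matrix.mul_apply, Fin.sum_univ_succ] at a00 a01 a10 a11
      refine ⟨mul_left_cancel₀ h2 ?_, mul_left_cancel₀ h2 ?_, mul_left_cancel₀ h2 ?_⟩ <;> grind)
    have k7 : k.1.1 * k.1.1 = 1 := congrArg (fun x : CC M => x.1.1) k2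
    have a1 : a = 1 := by
      have : a * a = 1 := by
        rcases ha with ha | ha <;> rw [ha] at k7 <;> simpa [σσ] using congrFun (congrFun k7 0) 0
      linear_combination a5 - a * (a ^ 2 + 1) * this
    rw [a1, one_smul, one_smul, ← ez] at ha
    exact ha.imp (fun e => Subtype.ext (Units.ext e)) fun e => Subtype.ext (Units.ext e)) z zo
  let ι : CC M →* M := Subgroup.inclusion inf_le_left
  have hι : Function.Injective ι := Subgroup.inclusion_injective _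
  have key : ∀ c ∈ O, Commute c z → c ∈ (Subgroup.center (GL (Fin 5) F)).subgroupOf M := by
    intro c hc hcz
    obtain ⟨k1, ⟨e⟩, -⟩ := h.ex5_top hn
    let f : CC M →* _ := mk.comp (rm h2 M)
    have ef : ((⊤ : Subgroup (CC M)).map (rm h2 M)).map mk = f.range := by
      rw [Subgroup.map_map, MonoidHom.range_eq_map]
    rw [ef] at k1 e
    haveI : IsSimpleGroup f.range := e.isSimpleGroup
    have hk : f ⟨c.1, inC c hcz⟩ = 1 := by
      rcases ((hO.comap ι).map f.rangeRestrict f.rangeRestrict_surjective).eq_bot_or_eq_top with k | k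
      · have : f.rangeRestrict ⟨c.1, inC c hcz⟩ ∈ (O.comap ι).map f.rangeRestrict := ⟨_, hc, rfl⟩
        rw [k] at this
        exact congrArg Subtype.val this
      · have d1 := Subgroup.card_map_dvd (O.comap ι) f.rangeRestrict
        rw [k, Subgroup.card_top, k1] at d1
        have := (Dvd.dvd.trans (by norm_num : 2 ∣ 60) d1).trans (Subgroup.card_comap_dvd_of_injective O ι hι)
        exact absurd (even_iff_two_dvd.2 this) (Nat.not_even_iff_odd.2 ho)
    obtain ⟨a, a5, -, ha | ha⟩ := h.scal hn _ hk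
    · refine Subgroup.mem_center_iff.2 fun g => Units.ext ?_
      have ha' : c.1.1 = a • 1 := ha
      show g.1 * c.1.1 = c.1.1 * g.1
      rw [ha']; simp
    · exfalso
      have ha' : c.1.1 = a • σ := ha
      have : c ^ 5 = z := Subtype.ext (Units.ext (by
        show (c.1 ^ 5).1 = z0.1
        rw [Units.val_pow_eq_pow_val, ha', _root_.smul_pow, a5, one_smul, ez, pow_succ,
          show 4 = 2 * 2 from rfl, pow_mul, pow_two σ, σσ, one_pow, one_mul]))
      have := O.orderOf_dvd_natCard (this ▸ pow_mem hc 5)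
      rw [zo] at this
      exact absurd (even_iff_two_dvd.2 this) (Nat.not_even_iff_odd.2 ho)
  have ab := ab_mod O ho z zz ((Subgroup.center (GL (Fin 5) F)).subgroupOf M)
    (fun c hc => Subgroup.mem_center_iff.2 fun g =>
      Subtype.ext (Subgroup.mem_center_iff.1 (Subgroup.mem_subgroupOf.1 hc) g.1)) key
  have inO : ∀ X : M5 F, InM M X → X * σ * X = σ → X ^ 5 = 1 → ∀ o ∈ O, ∃ a : F, o.1.1 * X = a • (X * o.1.1) := by
    rintro _ ⟨x, hx, rfl⟩ e1 e2 o ho
    obtain ⟨c, hc, e⟩ := ab o ho ⟨x, hx⟩ (mem_of_inv O z hd (by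
      rw [mul_inv_eq_iff_eq_mul, mul_inv_eq_iff_eq_mul]
      exact Subtype.ext (Units.ext (by
        show z0.1 = x.1 * z0.1 * x.1
        rw [ez, e1]))) (Subtype.ext (Units.ext (by
        show (x ^ 5).1 = 1
        rw [Units.val_pow_eq_pow_val, e2]))))
    rw [Subgroup.mem_subgroupOf, GeneralLinearGroup.center_eq_range_scalar] at hc
    obtain ⟨a, ha⟩ := hc
    refine ⟨a, ?_⟩
    have e' : o.1.1 * x.1 = c.1.1 * (x.1 * o.1.1) := congrArg (fun x : M => x.1.1) e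
    rw [e', ← ha]; simp [smul_eq_diagonal_mul]
  have h5 := om5 h.om
  intro g hg
  obtain ⟨o, ho', c, hc, e⟩ := hd ⟨g, hg⟩
  have e' : g = o.1 * c.1 := congrArg Subtype.val e
  rw [e']
  refine mul_mem (hsc _ o.2 (inO _ h.hρ ?_ ?_ o ho') (inO _ h.hτ (by mc) ?_ o ho')) (cm ⟨c.1, inC c hc⟩).1
  · mcx <;> linear_combination h5
  · have : (ρ ω : M5 F) = diagonal ![1, ω, ω ^ 2, ω ^ 3, ω ^ 4] := by mc
    have k : ∀ n, (ω ^ n) ^ 5 = 1 := fun n => by rw [← pow_mul, mul_comm, pow_mul, h5, one_pow]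
    rw [this, diagonal_pow]
    ext i j; fin_cases i <;> fin_cases j <;> simp [h5, k]
  · simp only [pow_succ, pow_zero]; mc

end Cfsg.Agent.H5.C5
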