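import Cfsg.Agent.H5.T3.Pair
import Cfsg.Agent.H3.PglMax

/-! Two-dimensional lemmas over a prime field: consequences of Dickson's theorem. -/

set_option autoImplicit false
set_option linter.unusedSimpArgs false
set_option linter.unusedSectionVars false
set_option linter.unusedVariables false

namespace Cfsg.Agent.H5.C5

open Matrix OnePoint Cfsg.Agent.H8 Cfsg.Agent.H5.T3
open scoped MatrixGroups
open Matrix.ProjGenLinGroup (mk)

variable {F : Type*} [Field F]

/-- a prime field -/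
structure PF (F : Type*) [Field F] (p : ℕ) : Prop where
  prime : p.Prime
  char : CharP F p
  fin : Finite F
  cast : ∀ c : F, ∃ n : ℕ, c = n

theorem PF.pow {p : ℕ} (h : PF F p) (c : F) : c ^ p = c := by
  obtain ⟨n, rfl⟩ := h.cast c
  haveI := h.char
  haveI : Fact p.Prime := ⟨h.prime⟩
  exact map_natCast (frobenius F p) n

theorem PF.pow_pow {p : ℕ} (h : PF F p) (c : F) (a : ℕ) : c ^ p ^ a = c := by
  induction a with
  | zero => simp
  | succ a ih => rw [pow_succ, pow_mul, ih, h.pow]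

theorem PF.sub_top {p : ℕ} (h : PF F p) (k : Subfield F) : k = ⊤ := by
  rw [eq_top_iff]
  intro c _
  obtain ⟨n, rfl⟩ := h.cast c
  exact natCast_mem k n

/-- `X` contains all matrices of determinant one -/
def SLin {ι : Type} [Fintype ι] [DecidableEq ι] (X : Subgroup (GL ι F)) : Prop :=
  ∀ Y : Matrix ι ι F, Y.det = 1 → InM X Y

theorem up_pow (s : F) (n : ℕ) : (!![1, s; 0, 1] : Matrix (Fin 2) (Fin 2) F) ^ n = !![1, n * s; 0, 1] := by
  induction n with
  | zero => ext i j; fin_cases i <;> fin_cases j <;> simp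
  | succ n ih =>
    rw [pow_succ, ih]
    ext i j; fin_cases i <;> fin_cases j <;> simp [mul_apply, Fin.sum_univ_two] <;> ring

theorem lo_pow (s : F) (n : ℕ) : (!![1, 0; s, 1] : Matrix (Fin 2) (Fin 2) F) ^ n = !![1, 0; n * s, 1] := by
  induction n with
  | zero => ext i j; fin_cases i <;> fin_cases j <;> simp
  | succ n ih =>
    rw [pow_succ, ih]
    ext i j; fin_cases i <;> fin_cases j <;> simp [mul_apply, Fin.sum_univ_two] <;> ring

theorem slin_of {X : Subgroup (GL (Fin 2) F)} (hu : ∀ s : F, InM X !![1, s; 0, 1])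
    (hl : ∀ s : F, InM X !![1, 0; s, 1]) : SLin X := by
  intro Y hY
  refine SL2.transvection_induction (fun A => InM X A.1) ?_ (fun A B hA hB => hA.mul hB) ⟨Y, hY⟩
  intro i j h c
  fin_cases i <;> fin_cases j
  · exact absurd rfl h
  · exact (hu c).congr (by
      ext i j; fin_cases i <;> fin_cases j <;> simp [SpecialLinearGroup.transvection_coe])
  · exact (hl c).congr (by
      ext i j; fin_cases i <;> fin_cases j <;> simp [SpecialLinearGroup.transvection_coe])
  · exact absurd rfl h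

theorem inM_of_mk {p : ℕ} (h : PF F p) {X : Subgroup (GL (Fin 2) F)} {t : GL (Fin 2) F}
    (ht : t.1 ^ p = 1) (hm : mk t ∈ X.map mk) : InM X t.1 := by
  obtain ⟨x, hx, e⟩ := hm
  obtain ⟨c, hc, e⟩ := exists_smul_of_mk_eq e.symm
  have e1 : x.1 = c • t.1 := by ext i j; simp [e]
  have h1 := (InM.of hx).pow p
  rw [e1, _root_.smul_pow, ht, h.pow] at h1
  have h2 := h1.inv (Y := c⁻¹ • 1) (by simp [smul_smul, hc])
  exact (h2.mul (InM.of hx)).congr (by rw [e1]; simp [smul_smul, hc])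

/-- the icosahedral case -/
def Ex5 (X : Subgroup (GL (Fin 2) F)) : Prop :=
  Nat.card (X.map mk) = 60 ∧ Nonempty (X.map mk ≃* alternatingGroup (Fin 5)) ∧
    ∀ g ∈ X.map mk, g ^ 2 = 1 ∨ g ^ 3 = 1 ∨ g ^ 5 = 1

theorem fix_diag {K : Type*} [Field K] [Algebra F K] {a : GL (Fin 2) F} {α β : F}
    (ha : a.1 = !![α, 0; 0, β]) (hne : α ≠ β) {z : OnePoint K} (hz : mk a • z = z) :
    z = ∞ ∨ z = ((0 : K) : OnePoint K) := by
  cases z with
  | infty => exact Or.inl rfl
  | coe w =>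
    right
    rw [smul_coe_eq_coe] at hz
    simp only [ha, of_apply, cons_val', cons_val_zero, cons_val_one, cons_val_fin_one, map_zero,
      add_zero, zero_mul, zero_add] at hz
    have h1 : algebraMap F K α - algebraMap F K β ≠ 0 :=
      sub_ne_zero.2 fun e => hne ((algebraMap F K).injective e)
    have : w = 0 := by
      apply mul_left_cancel₀ h1; linear_combination hz
    rw [this]

theorem dick {p : ℕ} (h : PF F p) {X : Subgroup (GL (Fin 2) F)} {α β : F} (hα : α ≠ 0) (hβ : β ≠ 0)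
    (h5 : α ^ 5 = β ^ 5) (hne : α ≠ β) (ha : InM X !![α, 0; 0, β])
    (hs : ∃ s ∈ X, s 0 0 = 0 ∧ s 1 1 = 0)
    (hf : ∃ f ∈ X, (f 0 0 ≠ 0 ∨ f 1 1 ≠ 0) ∧ (f 0 1 ≠ 0 ∨ f 1 0 ≠ 0)) : SLin X ∨ Ex5 X := by
  haveI := h.char
  haveI := h.fin
  haveI : Fact p.Prime := ⟨h.prime⟩
  obtain ⟨a, haX, ha⟩ := ha
  obtain ⟨s, hsX, s0, s1⟩ := hs
  obtain ⟨f, hfX, f0, f1⟩ := hf
  have hne2 : α * α ≠ β * β := fun e => hne (by
    have : α ^ 5 = α * (α * α) ^ 2 := by ring
    have h' : β ^ 5 = β * (β * β) ^ 2 := by ring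
    rw [this, h', e] at h5
    exact mul_right_cancel₀ (pow_ne_zero 2 (mul_ne_zero hβ hβ)) h5)
  have ha2 : (a * a).1 = !![α * α, 0; 0, β * β] := by
    rw [Units.val_mul, ha]; ext i j; fin_cases i <;> fin_cases j <;> simp [mul_apply, Fin.sum_univ_two]
  have hsd := s.det_ne_zero
  rw [det_fin_two, s0] at hsd
  have s01 : s 0 1 ≠ 0 := fun e => hsd (by rw [e]; ring)
  have s10 : s 1 0 ≠ 0 := fun e => hsd (by rw [e]; ring)
  have hfd := f.det_ne_zero
  rw [det_fin_two] at hfd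
  have pair : ∀ {K : Type _} [Field K] [Algebra F K] (x y : OnePoint K),
      X.map mk ≤ pairStab F x y → (x = ∞ ∨ x = ((0 : K) : OnePoint K)) ∧
        (y = ∞ ∨ y = ((0 : K) : OnePoint K)) := by
    intro K _ _ x y hH
    have h1 : mk (a * a) • x = x ∧ mk (a * a) • y = y := by
      rw [map_mul, mul_smul, mul_smul]
      rcases hH ⟨a, haX, rfl⟩ with ⟨e1, e2⟩ | ⟨e1, e2⟩
      · rw [e1, e1, e2, e2]; exact ⟨rfl, rfl⟩
      · rw [e1, e2, e1]; exact ⟨rfl, rfl⟩
    exact ⟨fix_diag ha2 hne2 h1.1, fix_diag ha2 hne2 h1.2⟩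
  rcases H3.dickson2 p (X.map mk) with ⟨x, hx⟩ | ⟨x, y, hxy, hx⟩ | ⟨t, a', b', ht, hx⟩ | hx | ⟨k, g, -, hx⟩
  · exfalso
    have h1 : mk s • x = x := hx ⟨s, hsX, rfl⟩
    rcases fix_diag ha hne (hx ⟨a, haX, rfl⟩ : mk a • x = x) with rfl | rfl
    · exact s10 (smul_infty_eq_infty.1 h1)
    · rw [smul_coe_eq_coe] at h1
      exact s01 (by simpa using h1)
  · exfalso
    have hp := pair x y hx
    have h1 := hx ⟨f, hfX, rfl⟩
    have key : (mk f • (∞ : OnePoint F) = ∞ ∧ mk f • ((0 : F) : OnePoint F) = ((0 : F) : OnePoint F)) ∨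
        (mk f • (∞ : OnePoint F) = ((0 : F) : OnePoint F) ∧ mk f • ((0 : F) : OnePoint F) = ∞) := by
      obtain ⟨rfl | rfl, rfl | rfl⟩ := hp
      · exact absurd rfl hxy
      · exact h1
      · exact h1.imp And.symm And.symm
      · exact absurd rfl hxy
    rcases key with ⟨e1, e2⟩ | ⟨e1, e2⟩
    · rw [smul_infty_eq_infty] at e1
      rw [smul_coe_eq_coe] at e2
      exact f1.elim (fun e => e (by simpa using e2)) (fun e => e e1)
    · rw [smul_infty_eq_coe] at e1
      rw [smul_coe_eq_infty] at e2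
      exact f0.elim (fun e => e (by simpa using e1)) (fun e => e (by simpa using e2))
  · exfalso
    rcases (pair _ _ hx).1 with e | e
    · exact coe_ne_infty _ e
    · exact ht.not_mem 0 (by rw [map_zero]; exact (coe_eq_coe.1 e).symm)
  · right
    have ho : orderOf (⟨mk a, a, haX, rfl⟩ : X.map mk) = 5 := by
      haveI : Fact (Nat.Prime 5) := ⟨by norm_num⟩
      apply orderOf_eq_prime
      · apply Subtype.ext
        show mk a ^ 5 = 1
        rw [← map_pow, mk_eq_one_iff]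
        simp only [Units.val_pow_eq_pow_val, ha]
        have : (!![α, 0; 0, β] : Matrix (Fin 2) (Fin 2) F) ^ 5 = !![α ^ 5, 0; 0, β ^ 5] := by
          ext i j; fin_cases i <;> fin_cases j <;> simp [pow_succ, mul_apply, Fin.sum_univ_two]
        rw [this]; simp [h5]
      · intro e
        have e' : mk a = 1 := congrArg Subtype.val e
        rw [mk_eq_one_iff] at e'
        simp only [ha] at e'
        exact hne (by simpa using e'.2.2)
    have hd := ho ▸ orderOf_dvd_natCard (⟨mk a, a, haX, rfl⟩ : X.map mk)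
    obtain ⟨-, -, ⟨e, -⟩ | ⟨e, -⟩ | ⟨e1, e2, -, e3⟩⟩ := hx
    · rw [e] at hd; norm_num at hd
    · rw [e] at hd; norm_num at hd
    · exact ⟨e1, e2, e3⟩
  · left
    rw [h.sub_top k] at hx
    have hL : Lsub F ≤ X.map mk := by
      intro y hy
      have hy' : g⁻¹ * y * g ∈ PS (⊤ : Subfield F) := by
        rw [PS_top]; exact (Lsub_normal).conj_mem' y hy g
      rcases hx with hx | hx <;> rw [hx, mem_cj]
      · exact hy'
      · exact PS_le_PG _ hy'
    have hp0 : (p : F) = 0 := CharP.cast_eq_zero F p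
    apply slin_of
    · intro c
      refine inM_of_mk h (t := mat 1 c 0 1 (by simp)) ?_ (hL (mk_mem_Lsub.2 ⟨1, by simp⟩))
      show (!![1, c; 0, 1] : Matrix (Fin 2) (Fin 2) F) ^ p = 1
      rw [up_pow, hp0]; ext i j; fin_cases i <;> fin_cases j <;> simp
    · intro c
      refine inM_of_mk h (t := mat 1 0 c 1 (by simp)) ?_ (hL (mk_mem_Lsub.2 ⟨1, by simp⟩))
      show (!![1, 0; c, 1] : Matrix (Fin 2) (Fin 2) F) ^ p = 1
      rw [lo_pow, hp0]; ext i j; fin_cases i <;> fin_cases j <;> simp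

theorem Ex5.not_comm {X : Subgroup (GL (Fin 2) F)} (h : Ex5 X) {s x : GL (Fin 2) F} (hs : s ∈ X)
    (hx : x ∈ X) (h1 : mk s * mk s = 1) (h2 : mk s ≠ 1) (h3 : mk x * mk x ≠ 1)
    (h4 : mk x * mk s = mk s * mk x) : False := by
  have hc : Commute (mk x) (mk s) := h4
  have e2 : mk s ^ 2 = 1 := by rw [pow_two, h1]
  have e3 : mk s ^ 3 = mk s := by rw [pow_succ, e2, one_mul]
  have e5 : mk s ^ 5 = mk s := by rw [show 5 = 2 * 2 + 1 from rfl, pow_succ, pow_mul, e2, one_pow, one_mul]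
  have k1 := h.2.2 _ ⟨x, hx, rfl⟩
  have k2 := h.2.2 _ ⟨x * s, mul_mem hx hs, rfl⟩
  rw [map_mul, hc.mul_pow, hc.mul_pow, hc.mul_pow, e2, e3, e5, mul_one] at k2
  generalize mk x = u at *
  generalize mk s = v at *
  rw [← pow_two] at h3
  have hv : ∀ n : ℕ, u ^ n * v = 1 → u ^ (n * 2) = 1 := fun n e => by
    rw [pow_mul, eq_inv_of_mul_eq_one_left e, inv_pow, e2, inv_one]
  have g1 : ∀ m n : ℕ, u ^ m = 1 → u ^ n = 1 → u ^ Nat.gcd m n = 1 := fun m n a b =>
    pow_gcd_eq_one.2 ⟨a, b⟩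
  rcases k1 with k1 | k1 | k1 <;> rcases k2 with k2 | k2 | k2 <;> try exact h3 ‹_›
  · rw [k1, one_mul] at k2; exact h2 k2
  · have := g1 _ _ k1 (hv _ k2)
    norm_num at this
    exact h3 (by rw [this, one_pow])
  · have := g1 _ _ k1 (hv _ k2)
    norm_num at this
    exact h3 (by rw [this, one_pow])
  · rw [k1, one_mul] at k2; exact h2 k2

/-- a non-scalar subgroup normalised by `SL₂` contains it. -/
theorem slin_of_normal {J : Subgroup (GL (Fin 2) F)} {l : F} (hl : l ≠ 0) (hl4 : l ^ 4 ≠ 1)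
    (hJ : ∀ g g' y : Matrix (Fin 2) (Fin 2) F, g.det = 1 → g * g' = 1 → InM J y → InM J (g * y * g'))
    {y : Matrix (Fin 2) (Fin 2) F} (hy : InM J y) (hn : ¬ H7.IsScal y) : SLin J := by
  have hw : ∀ y, InM J y → InM J !![y 1 1, -y 1 0; -y 0 1, y 0 0] := fun y hy =>
    (hJ !![0, 1; -1, 0] !![0, -1; 1, 0] y (by simp [det_fin_two])
      (by ext i j; fin_cases i <;> fin_cases j <;> simp [mul_apply, Fin.sum_univ_two]) hy).congr (by
      ext i j; fin_cases i <;> fin_cases j <;> simp [mul_apply, vecMul, dotProduct, Fin.sum_univ_two])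
  obtain ⟨y, hy, hc⟩ : ∃ y, InM J y ∧ y 1 0 ≠ 0 := by
    by_cases h1 : y 1 0 = 0
    · by_cases h2 : y 0 1 = 0
      · refine ⟨_, hJ !![1, 0; 1, 1] !![1, 0; -1, 1] y (by simp [det_fin_two])
          (by ext i j; fin_cases i <;> fin_cases j <;> simp [mul_apply, Fin.sum_univ_two]) hy, ?_⟩
        intro e
        simp [mul_apply, vecMul, dotProduct, Fin.sum_univ_two, h1, h2] at e
        exact hn ⟨y 0 0, by
          ext i j; fin_cases i <;> fin_cases j <;> simp [h1, h2]; linear_combination -e⟩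
      · exact ⟨_, hw y hy, by simpa using h2⟩
    · exact ⟨y, hy, h1⟩
  obtain ⟨b, c, t, hy, hc⟩ : ∃ b c t : F, InM J !![0, b; c, t] ∧ c ≠ 0 := by
    have := hJ !![1, -y 0 0 / y 1 0; 0, 1] !![1, y 0 0 / y 1 0; 0, 1] y (by simp [det_fin_two])
      (by ext i j; fin_cases i <;> fin_cases j <;> simp [mul_apply, Fin.sum_univ_two]; ring) hy
    refine ⟨y 0 1 - y 0 0 / y 1 0 * y 1 1, y 1 0, y 0 0 + y 1 1, this.congr ?_, hc⟩
    ext i j; fin_cases i <;> fin_cases j <;> simp [mul_apply, vecMul, dotProduct, Fin.sum_univ_two] <;>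
      field_simp <;> ring
  have hb : b ≠ 0 := by
    obtain ⟨k, -, e⟩ := hy
    have := k.det_ne_zero
    rw [e, det_fin_two_of] at this
    exact fun e => this (by rw [e]; ring)
  have hyi := hy.inv (Y := !![-t / (b * c), 1 / c; 1 / b, 0]) (by
    ext i j; fin_cases i <;> fin_cases j <;> simp [mul_apply, Fin.sum_univ_two] <;> field_simp <;> ring)
  have hz := ((hJ !![l, 0; 0, l⁻¹] !![l⁻¹, 0; 0, l] _ (by simp [det_fin_two, hl])
    (by ext i j; fin_cases i <;> fin_cases j <;> simp [mul_apply, Fin.sum_univ_two, hl]) hy).mul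
    hyi).congr (Y := !![l ^ 2, 0; t / b * (1 - (l ^ 2)⁻¹), (l ^ 2)⁻¹]) (by
      ext i j; fin_cases i <;> fin_cases j <;> simp [mul_apply, Fin.sum_univ_two] <;> field_simp <;> ring)
  have hzi := hz.inv (Y := !![(l ^ 2)⁻¹, 0; -(t / b * (1 - (l ^ 2)⁻¹)), l ^ 2]) (by
    ext i j; fin_cases i <;> fin_cases j <;> simp [mul_apply, Fin.sum_univ_two, hl] <;> field_simp <;> ring)
  have h4 : 1 - (l ^ 4)⁻¹ ≠ 0 := fun e => hl4 (by
    have := sub_eq_zero.1 e
    rw [eq_comm, inv_eq_one] at this; exact this)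
  have hlo : ∀ s : F, InM J !![1, 0; s, 1] := fun s =>
    ((hJ !![1, 0; s / (1 - (l ^ 4)⁻¹), 1] !![1, 0; -(s / (1 - (l ^ 4)⁻¹)), 1] _ (by simp [det_fin_two])
      (by ext i j; fin_cases i <;> fin_cases j <;> simp [mul_apply, Fin.sum_univ_two]) hz).mul hzi).congr (by
        have h4' : l ^ 4 - 1 ≠ 0 := sub_ne_zero.2 hl4
        ext i j; fin_cases i <;> fin_cases j <;> simp [mul_apply, Fin.sum_univ_two, hl] <;>
          field_simp <;> ring)
  exact slin_of (fun s => (hw _ (hlo (-s))).congr (by simp)) hlo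

end Cfsg.Agent.H5.C5
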